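import Cfsg.Agent.Lib.J4C.FiveD

/-! The classes of elements of order divisible by 5. -/

set_option autoImplicit false
set_option maxRecDepth 100000
set_option Elab.async false

namespace H74.J4C
open H54 hiding bnot bnot_eq_true In grp Enum Good c24
open H66.Vec H66.J4 Cfsg Cfsg.Spor H75.J4 Subgroup

theorem r5 (i : ℕ) (hi : i < 4) : RJ2 (eW (nthW w5 i)) (oJ.word LA (nthW w5 i)) :=
  rW ((allLt_iff _ _).1 (show allLt (fun i => okW 36 (nthW w5 i)) 4 = true by decide +kernel) i hi)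

/-- an element of order 5 -/
noncomputable def y5 : J4 := eW (nthW w5 0)

theorem o_y5 : orderOf y5 = 5 := sJ.orderOf_eq (r5 0 (by decide)) (fuel := 5) (by decide +kernel) (by decide)

/-- its centraliser -/
abbrev C5 : Subgroup J4 := centralizer {y5}

theorem card_C5 : Nat.card C5 = 6720 := card_cent_5 mdJ o_y5

/-- the points -/
noncomputable def pt5 (j : ℕ) : H78.Vec.VS φ := dv (n := 112) 7 1 1 φ (cB 112 q5 j)

theorem X5 : Ctx cfg5 pt5 := ctx_B (n := 112) (by decide) cfg5_check (by decide +kernel)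

theorem gens5 : ∀ s ∈ ch5.gens, H54.In cfg5 pt5 (⊤ : Subgroup C5) s := by
  have h : allLt (fun i => band (oJ.comm (oJ.word LA (nthW w5 (i + 2))) (oJ.word LA (nthW w5 0)))
    (repB 112 cfg5 q5 (oJ.word LA (nthW w5 (i + 2))) (nth ch5.gens i))) 2 = true := by decide +kernel
  simp only [allLt_iff, band_eq_true] at h
  intro s hs
  obtain ⟨i, hi, rfl⟩ := exists_nth_of_mem hs
  have hi' : i < 2 := hi
  have r := r5 (i + 2) (by omega)
  exact ⟨⟨_, mem_cent.2 ((sJ.comm_iff r (r5 0 (by decide))).1 (h i hi').1)⟩, trivial,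
    r.rep (w := 7) (μ := 1) (s := 1) (by decide) (h i hi').2⟩

theorem K5 : Kfix C5 cfg5 pt5 = ⊥ := by
  have := (low_of_check X5 gens5 ch5_low).size_le X5 le_top (by
    rw [relIndex_top_right]; exact index_ne_zero_of_finite)
  rw [relIndex_top_right, ch5_size] at this
  have c := (Kfix C5 cfg5 pt5).card_mul_index
  rw [card_C5] at c
  refine eq_bot_of_card_le _ ?_
  by_contra n
  nlinarith

theorem good5 : H54.Good cfg5 pt5 ch5 (⊤ : Subgroup C5) :=
  (good_of_card_le X5 K5 gens5 ch5_low (by rw [card_top, card_C5, ch5_size])).1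

theorem goodP : H54.Good cfg5 pt5 chP (H54.grp C5 cfg5 pt5 chP.gens) :=
  good_of_check X5 (valid_of_in (good5.all_in X5 (by decide +kernel))) chP_low chP_up

theorem sep5 : ∀ i, i < 7 → ∀ j, j < 7 → ordc cfg5 (nth R5 i) = ordc cfg5 (nth R5 j) →
    fixc cfg5 (powc cfg5 (nth R5 i) 1) = fixc cfg5 (powc cfg5 (nth R5 j) 1) → i = j := by decide +kernel

theorem cov5 : allElts cfg5 (fun p => anyL (fun t : ℕ × ℕ × ℕ => band (eqc cfg5 p t.1) (band (Nat.blt t.2.2 7)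
    (band (memb cfg5 ch5 t.2.1) (eqc cfg5 (cfg5.mul t.2.1 (nth R5 t.2.2)) (cfg5.mul p t.2.1))))) T5) chP cfg5.one = true := by
  decide +kernel

theorem fib5 (ψ : ℕ → Prop) (h1 : ∀ n, ψ (5 * n) ↔ ¬ 3 ∣ n ∧ ¬ 7 ∣ n) : KH C5 (Fib 5 ψ y5) = 7 := by
  have ex : ∀ i, ∃ g : C5, i < 7 → Rep cfg5 pt5 g (nth R5 i) := fun i => by
    by_cases hi : i < 7
    · obtain ⟨g, -, r⟩ := good5.in_of_memb X5 ((allLt_iff _ _).1
        (show allLt (fun i => memb cfg5 ch5 (nth R5 i)) 7 = true by decide +kernel) i hi)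
      exact ⟨g, fun _ => r⟩
    · exact ⟨1, fun h => absurd h hi⟩
  choose ρ hρ using ex
  refine (KH_eq (Finset.range 7) (fun i => (ρ i : J4)) (fun i hi => ?_) (fun i hi j hj h => ?_) fun r hr => ?_).trans
    (Finset.card_range 7)
  · rw [Finset.mem_range] at hi
    have := (by decide +kernel : ∀ i, i < 7 → ¬ 5 ∣ ordc cfg5 (nth R5 i) ∧ ¬ 3 ∣ ordc cfg5 (nth R5 i) ∧
      ¬ 7 ∣ ordc cfg5 (nth R5 i)) i hi
    rw [← (hρ i hi).orderOf_eq X5 K5, ← orderOf_coe] at this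
    exact ⟨(ρ i).2, this.1, (h1 _).2 this.2⟩
  · rw [Finset.mem_range] at hi hj
    obtain ⟨k, hk, e⟩ := h
    refine sep5 i hi j hj ?_ (by_contra fun c =>
      good5.ne_conj_of_fixc X5 (hρ i hi) (hρ j hj) 1 c ⟨k, hk⟩ trivial (Subtype.ext e))
    rw [← (hρ i hi).orderOf_eq X5 K5, ← (hρ j hj).orderOf_eq X5 K5, ← orderOf_coe, ← orderOf_coe]
    exact CH.order ⟨k, hk, e⟩
  · obtain ⟨a, o⟩ := two_pow_of (card_C5 ▸ orderOf_dvd_card_of_mem hr.1) [3, 5, 7] (by decide +kernel) (K := 6)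
      (by decide +kernel) (by norm_num) (by
        simp only [List.forall_mem_cons]
        exact ⟨((h1 _).1 hr.2.2).1, hr.2.1, ((h1 _).1 hr.2.2).2, by simp⟩)
    obtain ⟨g, hg⟩ := H15.Mdl.exists_conj_le_of_isPGroup (G := C5) (p := 2) (k := 6) (by norm_num)
      ((goodP.card X5 K5).trans chP_size) (by rw [card_C5]; norm_num) (Q := zpowers ⟨r, hr.1⟩)
      (IsPGroup.of_card (by rw [Nat.card_zpowers, ← orderOf_coe, o]))
    obtain ⟨p, rp, c⟩ := goodP.forall_of_allElts X5 cov5 _ (hg _ (mem_zpowers _))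
    simp only [anyL_iff, band_eq_true, Nat.blt_eq] at c
    obtain ⟨t, -, -, c1, c2, c3⟩ := c
    obtain ⟨k, -, rk⟩ := good5.in_of_memb X5 c2
    have e := ((rk.mul X5 (hρ _ c1)).eqc_iff X5 K5 (rp.mul X5 rk)).1 c3
    exact ⟨_, Finset.mem_range.2 c1, CH.trans ⟨k, k.2, congrArg Subtype.val (mul_inv_eq_iff_eq_mul.2 e)⟩
      (CH.symm ⟨g, g.2, rfl⟩)⟩

theorem block5 (ψ : ℕ → Prop) (h1 : ∀ n, ψ (5 * n) ↔ ¬ 3 ∣ n ∧ ¬ 7 ∣ n) :
    KH ⊤ {g : J4 | 5 ∣ orderOf g ∧ ψ (orderOf g)} = 7 := by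
  haveI : Fact (Nat.Prime 5) := ⟨by norm_num⟩
  rw [block (by norm_num) (exp_of_not_sq (by norm_num) mdJ.not25) ψ [y5] (by simp [o_y5]) (by simp) fun w ow => ?_,
    List.map_singleton, List.sum_singleton, fib5 ψ h1]
  obtain ⟨k, -, i, hi, e⟩ := exists_conj_prime (p := 5) (K := ⊤) (by rw [card_top]; exact mdJ.not25) (mem_top w)
    (mem_top y5) ow o_y5
  refine ⟨y5, by simp, CH.trans ?_ (CH.symm ⟨k, trivial, e⟩)⟩
  have c : eW (nthW w5 1) * y5 * (eW (nthW w5 1))⁻¹ = y5 ^ 2 := mul_inv_eq_iff_eq_mul.2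
    ((sJ.cj_iff (r5 1 (by decide)) (r5 0 (by decide)) (sJ.pow (r5 0 (by decide)) 2)).1 (by decide +kernel))
  have d : ∀ a : ℕ, CH ⊤ y5 (y5 ^ (2 ^ a % 5)) := fun a =>
    ⟨_, trivial, (conj_pow_eq c a).trans (by rw [← o_y5, pow_mod_orderOf])⟩
  interval_cases i
  · rw [pow_zero, conj_eq_one_iff] at e
    rw [e, orderOf_one] at ow; exact absurd ow (by norm_num)
  exacts [d 0, d 1, d 3, d 2]

theorem eqns_Five : True := by
  have := @y5.eq_1
  have := @pt5.eq_1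
  have := @C5.eq_1
  trivial

end H74.J4C
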