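import Cfsg.Agent.Lib.J4C.TwoA

/-! The classes of 2-elements. -/

set_option autoImplicit false
set_option maxRecDepth 100000

namespace H74.J4C
open H54 hiding bnot bnot_eq_true In grp Enum Good c24
open H15 hiding allLt allLt_iff Good force force_eq
open H66.Vec H66.J4 Cfsg Cfsg.Spor H15.Mdl H75.J4 Subgroup H96.Geo

theorem ov_pow {x : J4} {γ : M24} (h : MJ.Ov x γ) : ∀ n : ℕ, MJ.Ov (x ^ n) (γ ^ n)
  | 0 => by rw [pow_zero, pow_zero]; exact MM.ov_one_iff.2 (one_mem _)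
  | n + 1 => by rw [pow_succ, pow_succ]; exact (ov_pow h n).mul h

theorem std_all {g : J4} {a : ℕ} (o : orderOf g = 2 ^ a) : Std g := by
  obtain ⟨E, hE, c⟩ := exists_sub_card (D := NJ) (n := 21) (by rw [card_NJ]; norm_num)
  obtain ⟨k, hk⟩ := exists_conj_le_of_isPGroup (by norm_num) c (by rw [card_J4]; norm_num) (Q := zpowers g)
    (IsPGroup.of_card (by rw [Nat.card_zpowers, o]))
  refine Std.of_conj k ?_
  obtain ⟨γ, h⟩ := MJ.exists_ov (norm_MJ.symm ▸ hE (hk g (mem_zpowers g)))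
  have o' : (k * g * k⁻¹) ^ 2 ^ a = 1 := by rw [conj_pow, ← o, pow_orderOf_eq_one]; simp
  generalize k * g * k⁻¹ = x at h o'
  have oγ : γ ^ 2 ^ a = 1 := (ov_pow h _).mem_V_iff.1 (o' ▸ one_mem _)
  obtain ⟨e, he, l, hl, e1⟩ := M24.table.cover γ γ.2
  have d : e.o ∣ 2 ^ a := by
    rw [← M24.table.ord e he, CH.order (H := ⊤) ⟨l, trivial, e1⟩, orderOf_coe]
    exact orderOf_dvd_of_pow_eq_one oγ
  refine Std.of_conj (MJ.c ⟨l, hl⟩)⁻¹ ?_
  have h' := ((MJ.ov_c ⟨l, hl⟩).inv.mul h).mul (MJ.ov_c ⟨l, hl⟩).inv.inv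
  have e2 : (((⟨l, hl⟩ : M24)⁻¹ * γ * (⟨l, hl⟩ : M24)⁻¹⁻¹ : M24) : Equiv.Perm GolayPt) = permOf e.c := by
    simp only [coe_mul, coe_inv, ← e1]; group
  generalize (⟨l, hl⟩ : M24)⁻¹ * γ * (⟨l, hl⟩ : M24)⁻¹⁻¹ = δ at h' e2
  obtain ⟨t, ht, e3⟩ := h'
  rw [mul_inv_eq_iff_eq_mul.1 e3]
  rcases (by decide +kernel : ∀ e ∈ M24.cls, (∃ p ∈ [3, 5, 7, 11, 23], p ∣ e.o) ∨ e.c = idP ∨ e.c = pX (nthW WX 0) ∨
    e.c = pX (nthW WX 1) ∨ e.c = pX (nthW WX 2) ∨ e.c = pX (nthW WX 3) ∨ e.c = pX (nthW WX 4) ∨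
      e.c = pX (nthW WX 5)) e he with ⟨p, hp, dp⟩ | c | c | c | c | c | c | c
  · have pp := (by decide +kernel : ∀ p ∈ [3, 5, 7, 11, 23], p.Prime ∧ ¬ p ∣ 2) p hp
    exact absurd (pp.1.dvd_of_dvd_pow (dp.trans d)) pp.2
  · rw [show δ = 1 from Subtype.ext (by rw [e2, c, permOf_idP]; rfl), map_one, mul_one]
    exact Or.inl (eaJ.self ht)
  all_goals rw [c] at e2
  exacts [std_2A e2 ht, std_2B e2 ht, std_4A e2 ht, std_4B e2 ht, std_4C e2 ht, std_8A e2 ht]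

theorem sepH {i j n : ℕ} (hi : i < 7) (hj : j < 7) (i2 : i ≠ 2) (j2 : j ≠ 2) (a : ρ2 i ^ n = zJ) (b : ρ2 j ^ n = zJ)
    (s : sig (pW (nthW RH i)) ≠ sig (pW (nthW RH j))) : ¬ CH ⊤ (ρ2 i) (ρ2 j) := by
  rintro ⟨k, -, e⟩
  have hk : k ∈ mdJ.H := mdJ.mem_H.2 (mul_inv_eq_iff_eq_mul.1 (by rw [mdJ_z, ← a, ← conj_pow, e, a, b]))
  rw [ρ2, ρ2, if_neg i2, if_neg j2] at e
  have := congrArg (fun g => Sig (mdJ.π g)) e
  simp only [mdJ.π_conj hk (hρ i hi).mem, Sig_conj, (hρ i hi).per, (hρ j hj).per, Sig_permOf (hρ i hi).ok,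
    Sig_permOf (hρ j hj).ok] at this
  exact s this

theorem block2 (ψ : ℕ → Prop) (h : ∀ n, ψ n ↔ ∀ q ∈ [3, 5, 7, 11, 23, 29, 31, 37, 43], ¬ q ∣ n) : KO J4 ψ = 10 := by
  have o : ∀ j, j < 7 → orderOf (ρ2 j) = nth [4, 4, 4, 8, 8, 8, 16] j := fun j hj =>
    sJ.orderOf_eq (rρ j hj) (fuel := 16) (Nat.eq_of_beq_eq_true ((allLt_iff _ _).1
      (show allLt (fun j => Nat.beq (oJ.ord 16 (nth RL j)) (nth [4, 4, 4, 8, 8, 8, 16] j)) 7 = true by decide +kernel) j hj))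
      (by interval_cases j <;> decide)
  have o0 : orderOf (ρ2 0) = 4 := o 0 (by decide)
  have o1 : orderOf (ρ2 1) = 4 := o 1 (by decide)
  have o2 : orderOf (ρ2 2) = 4 := o 2 (by decide)
  have o3 : orderOf (ρ2 3) = 8 := o 3 (by decide)
  have o4 : orderOf (ρ2 4) = 8 := o 4 (by decide)
  have o5 : orderOf (ρ2 5) = 8 := o 5 (by decide)
  have o6 : orderOf (ρ2 6) = 16 := o 6 (by decide)
  have oz := mdJ.orderOf_z
  have ob : orderOf (mdJ.s 180) = 2 := sJ.orderOf_eq (r_s 180) (fuel := 2) (by decide +kernel) (by decide)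
  have pz : ∀ j n, j < 7 → oJ.eqv (oJ.pow (nth RL j) n) (nth LQ 12) = true → ρ2 j ^ n = zJ := fun j n hj e =>
    (sJ.eqv_iff (sJ.pow (rρ j hj) n) rzJ).1 e
  have p0 := pz 0 2 (by decide) (by decide +kernel)
  have p1 := pz 1 2 (by decide) (by decide +kernel)
  have p3 := pz 3 4 (by decide) (by decide +kernel)
  have p4 := pz 4 4 (by decide) (by decide +kernel)
  have p5 := pz 5 4 (by decide) (by decide +kernel)
  have c2 : ∀ g : J4, g ^ 2 = zJ → ¬ CH ⊤ g (ρ2 2) := fun g e c => mdJ.not_conj_b (by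
    refine (show IsConj mdJ.z (ρ2 2 ^ 2) from by rw [mdJ_z, ← e]; exact c.isConj.pow 2).trans (isConj_iff.2 ⟨eW wD, ?_⟩)
    exact mul_inv_eq_iff_eq_mul.2 ((sJ.cj_iff (rW (by decide +kernel)) (sJ.pow (rρ 2 (by decide)) 2) (r_s 180)).1
      (by decide +kernel)))
  refine KH_list [1, mdJ.z, mdJ.s 180, ρ2 0, ρ2 1, ρ2 2, ρ2 3, ρ2 4, ρ2 5, ρ2 6] ?_ ?_ fun g hg => ?_
  · simp only [List.forall_mem_cons, Set.mem_ofPred_eq, orderOf_one, o0, o1, o2, o3, o4, o5, o6, oz, ob, h]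
    simp
  · refine List.Pairwise.imp (R := fun a b => orderOf a = orderOf b → ¬ CH ⊤ a b) (fun {a b} n (c : CH ⊤ a b) => n c.order c) ?_
    simp only [List.pairwise_cons, List.forall_mem_cons, orderOf_one, o0, o1, o2, o3, o4, o5, o6, oz, ob,
      List.not_mem_nil, IsEmpty.forall_iff, implies_true, List.Pairwise.nil, and_true, true_and, Nat.reduceEqDiff,
      forall_const]
    exact ⟨fun c => mdJ.not_conj_b c.isConj,
      ⟨sepH (by decide) (by decide) (by decide) (by decide) p0 p1 (by decide +kernel), c2 _ p0⟩, c2 _ p1,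
      ⟨sepH (by decide) (by decide) (by decide) (by decide) p3 p4 (by decide +kernel),
        sepH (by decide) (by decide) (by decide) (by decide) p3 p5 (by decide +kernel)⟩,
      sepH (by decide) (by decide) (by decide) (by decide) p4 p5 (by decide +kernel)⟩
  · obtain ⟨a, e⟩ := two_pow_of (card_J4 ▸ orderOf_dvd_natCard g) [3, 5, 7, 11, 23, 29, 31, 37, 43] (by decide +kernel)
      (K := 21) (by decide +kernel) (by norm_num) ((h _).1 hg)
    rcases std_all e with c | ⟨j, hj, c⟩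
    · by_cases g1 : g = 1
      · exact ⟨1, by simp, g1 ▸ CH.refl _ _⟩
      · rcases mdJ.two_classes g1 c with c | c
        exacts [⟨_, by simp, ch_top.2 c⟩, ⟨_, by simp, ch_top.2 c⟩]
    · refine ⟨_, ?_, ch_top.2 c⟩
      interval_cases j <;> simp

end H74.J4C
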