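import Cfsg.Agent.Lib.J4C.TwoD
import Cfsg.Agent.Lib.M24Geom.ClsM24

/-! The cosets of the group of order 2048 above 2-elements. -/

set_option autoImplicit false
set_option maxRecDepth 100000
set_option Elab.async false

namespace H74.J4C
open H54 hiding bnot bnot_eq_true In grp Enum Good c24
open H15 hiding allLt allLt_iff Good force force_eq
open H66.Vec H66.J4 Cfsg Cfsg.Spor H15.Mdl H75.J4 Subgroup H96.Geo

/-- the codes of the representatives -/
noncomputable def RC (j : ℕ) : ℕ := sel (Nat.beq j 2) (oJ.word LA w4C) (oJ.word LQ (nthW RH j))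

/-- the representatives -/
noncomputable def ρ2 (j : ℕ) : J4 := if j = 2 then eW w4C else eH (nthW RH j)

theorem hρ (j : ℕ) (hj : j < 7) : HW (eH (nthW RH j)) (oJ.word LQ (nthW RH j)) (pW (nthW RH j)) :=
  hW ((allLt_iff _ _).1 (show allLt (fun j => okW 17 (nthW RH j)) 7 = true by decide +kernel) j hj)

theorem rρ (j : ℕ) (hj : j < 7) : RJ2 (ρ2 j) (nth RL j) := by
  refine sJ.tr ?_ ((allLt_iff _ _).1 (show allLt (fun j => oJ.eqv (RC j) (nth RL j)) 7 = true by decide +kernel) j hj)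
  unfold ρ2 RC
  split_ifs with h
  · rw [h, Nat.beq_refl, sel_true]; exact rW (by decide +kernel)
  · rw [beq_false h, sel_false]; exact (hρ j hj).r

/-- an involution or conjugate to a representative -/
def Std (g : J4) : Prop := g * g = 1 ∨ ∃ j, j < 7 ∧ IsConj (ρ2 j) g

theorem Std.of_conj {g : J4} (k : J4) (h : Std (k * g * k⁻¹)) : Std g :=
  h.imp (fun e => by rwa [conj_mul, conj_eq_one_iff] at e) fun ⟨j, hj, c⟩ =>
    ⟨j, hj, c.trans (isConj_iff.2 ⟨k, rfl⟩ : IsConj g _).symm⟩

/-- the permutation of a word in the generators of the complement -/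
noncomputable def pX (w : List ℕ) : ℕ :=
  List.rec (motive := fun _ => ℕ) idP (fun j _ ih => force ih fun x => force (nth L5 j) fun y => H15.mulP y x) w

theorem pX_cons (j : ℕ) (w : List ℕ) : pX (j :: w) = H15.mulP (nth L5 j) (pX w) := rfl

theorem θ_word : ∀ w : List ℕ, (∀ l ∈ w, l < 2) → okP (pX w) = true ∧
    ∃ γ : M24, (γ : Equiv.Perm GolayPt) = permOf (pX w) ∧ RJ2 (θJ γ) (oJ.word [bX, bY] w)
  | [], _ => ⟨okP_idP, 1, permOf_idP.symm, by rw [map_one]; exact sJ.one⟩
  | j :: w, h => by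
    obtain ⟨ok, γ, e, r⟩ := θ_word w fun i hi => h i (List.mem_cons_of_mem _ hi)
    have hj := h j List.mem_cons_self
    have ok' := (by decide +kernel : ∀ i, i < 2 → okP (nth L5 i) = true) j hj
    rw [word_cons, pX_cons]
    refine ⟨okP_mulP ok' ok, q24 j * γ, by rw [coe_mul, e, q24_eq j hj, permOf_mulP ok' ok], ?_⟩
    rw [map_mul, θJ_q j hj]
    refine sJ.mul ?_ r
    interval_cases j
    exacts [rX, rY]

/-- the set of the commutators -/
noncomputable def orS (F n : ℕ) : ℕ :=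
  Nat.rec 0 (fun v ih => force ih fun a => Nat.lor a (Nat.shiftLeft 1 (Nat.xor v (mv F v)))) n

theorem orS_spec {F a : ℕ} : ∀ {n : ℕ}, tb (orS F n) a = true → ∃ v, v < n ∧ v ^^^ mv F v = a
  | 0, h => by rw [show orS F 0 = 0 from rfl, tb_zero] at h; exact Bool.noConfusion h
  | n + 1, h => by
    rw [show orS F (n + 1) = Nat.lor (orS F n) (Nat.shiftLeft 1 (Nat.xor n (mv F n))) from rfl, tb_or_shift,
      Bool.or_eq_true, decide_eq_true_eq] at h
    rcases h with h | h
    · obtain ⟨v, hv, e⟩ := orS_spec h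
      exact ⟨v, by omega, e⟩
    · exact ⟨n, by omega, h⟩

/-- the action on `V` and the covering by the cosets of the commutator space -/
noncomputable def chkA (wx : List ℕ) (X F : ℕ) (Cs : List (List ℕ)) : Bool :=
  band (okW 2 wx) (band (oJ.eqv (oJ.word [bX, bY] wx) X)
    (band (allLt (fun i => force (mv F (2 ^ i)) fun k => band (Nat.blt k 2048)
      (oJ.cj X (nth LV i) (pC oJ LV 11 k))) 11)
    (force (orS F 2048) fun S => allLt (fun t => anyL (fun e => tb S (Nat.xor t (nth e 0))) Cs) 2048)))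

/-- the check of one candidate -/
noncomputable def chkE (X : ℕ) (e : List ℕ) : Bool :=
  band (Nat.blt (nth e 0) 2048) (force (oJ.mul (pC oJ LV 11 (nth e 0)) X) fun g =>
    bor (oJ.isOne (oJ.mul g g)) (band (Nat.blt (nth e 1) 7) (band (okW 36 (List.drop 2 e))
      (oJ.cj (oJ.word LA (List.drop 2 e)) g (nth RL (nth e 1))))))

/-- the check of four candidates -/
noncomputable def chkB (X : ℕ) (Cs : List (List ℕ)) (k : ℕ) : Bool :=
  allL (chkE X) (List.take 4 (List.drop (4 * k) Cs))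

theorem chkB_all {X m : ℕ} {Cs : List (List ℕ)} (h : ∀ k, k < m → chkB X Cs k = true) (l : Cs.length ≤ 4 * m) :
    ∀ e ∈ Cs, chkE X e = true := by
  intro e he
  obtain ⟨i, hi, rfl⟩ := List.getElem_of_mem he
  refine (allL_iff _ _).1 (h (i / 4) (by omega)) _ ?_
  rw [List.mem_iff_getElem]
  refine ⟨i % 4, by simp only [List.length_take, List.length_drop]; omega, ?_⟩
  simp only [List.getElem_take, List.getElem_drop]
  congr 1
  omega

theorem chk2_spec {wx : List ℕ} {X F : ℕ} {Cs : List (List ℕ)} (h : chkA wx X F Cs = true)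
    (h4 : ∀ e ∈ Cs, chkE X e = true) {γ : M24}
    (e : (γ : Equiv.Perm GolayPt) = permOf (pX wx)) {t : ℕ} (ht : t < 2048) : Std (vel t * θJ γ) := by
  simp only [chkA, chkE, force_eq, band_eq_true, allLt_iff, anyL_iff, bor_eq_true, Nat.blt_eq] at h h4
  obtain ⟨h1, h0, h2, h3⟩ := h
  obtain ⟨-, γ', e', r⟩ := θ_word wx (okW_spec h1)
  replace r := sJ.tr r h0
  obtain rfl : γ = γ' := Subtype.ext (e.trans e'.symm)
  have hx : ∀ v, v < 2 ^ 11 → mv F v < 2048 ∧ θJ γ * vel v * (θJ γ)⁻¹ = vel (mv F v) :=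
    xor_induction (n := 11) (by simp [mv_zero, eaJ.zero]) (fun i hi => ⟨(h2 i hi).1, by
      rw [vel, prodB_two_pow hi, (sJ.cj_iff r (rBJ i hi) (r_vel _)).1 (h2 i hi).2, mul_inv_cancel_right]⟩)
      fun a b ha hb i j => by
        rw [mv_xor _ (by omega) (by omega), vel_xor, vel_xor, ← i.2, ← j.2]
        exact ⟨Nat.xor_lt_two_pow (n := 11) i.1 j.1, by group⟩
  obtain ⟨c, hc, h5⟩ := h3 t ht
  obtain ⟨v, hv, e1⟩ := orS_spec h5
  obtain ⟨h6, h7⟩ := h4 c hc
  have rg := sJ.mul (r_vel (nth c 0)) r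
  refine Std.of_conj (vel v) ?_
  have e2 : vel v * (vel t * θJ γ) * (vel v)⁻¹ = vel (nth c 0) * θJ γ := by
    rw [eaJ.inv (n := 11) hv, show nth c 0 = v ^^^ t ^^^ mv F v by
      rw [Nat.xor_comm v, Nat.xor_assoc, e1]; show _ = t ^^^ (t ^^^ _); rw [← Nat.xor_assoc, Nat.xor_self, Nat.zero_xor],
      vel_xor, vel_xor, ← (hx v hv).2]
    group
  rw [e2]
  exact h7.imp (sJ.isOne_iff (sJ.mul rg rg)).1 fun ⟨a, b, c⟩ => ⟨_, a, IsConj.symm (isConj_iff.2 ⟨_,
    mul_inv_eq_iff_eq_mul.2 ((sJ.cj_iff (rW b) rg (rρ _ a)).1 c)⟩)⟩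

theorem chkA_2A : chkA (nthW WX 0) (nth XL 0) (nth FX 0) C2A = true := by decide +kernel
theorem chkB_2A_0 : chkB (nth XL 0) C2A 0 = true := by decide +kernel
theorem chkB_2A_1 : chkB (nth XL 0) C2A 1 = true := by decide +kernel
theorem chkB_2A_2 : chkB (nth XL 0) C2A 2 = true := by decide +kernel
theorem chkB_2A_3 : chkB (nth XL 0) C2A 3 = true := by decide +kernel
theorem chkB_2A_4 : chkB (nth XL 0) C2A 4 = true := by decide +kernel
theorem chkB_2A_5 : chkB (nth XL 0) C2A 5 = true := by decide +kernel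
theorem chkB_2A_6 : chkB (nth XL 0) C2A 6 = true := by decide +kernel
theorem chkB_2A_7 : chkB (nth XL 0) C2A 7 = true := by decide +kernel
theorem chkB_2A_8 : chkB (nth XL 0) C2A 8 = true := by decide +kernel
theorem chkB_2A_9 : chkB (nth XL 0) C2A 9 = true := by decide +kernel
theorem chkB_2A_10 : chkB (nth XL 0) C2A 10 = true := by decide +kernel
theorem chkB_2A_11 : chkB (nth XL 0) C2A 11 = true := by decide +kernel
theorem chkB_2A_12 : chkB (nth XL 0) C2A 12 = true := by decide +kernel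
theorem chkB_2A_13 : chkB (nth XL 0) C2A 13 = true := by decide +kernel
theorem chkB_2A_14 : chkB (nth XL 0) C2A 14 = true := by decide +kernel
theorem chkB_2A_15 : chkB (nth XL 0) C2A 15 = true := by decide +kernel
theorem chkB_2A_16 : chkB (nth XL 0) C2A 16 = true := by decide +kernel
theorem chkB_2A_17 : chkB (nth XL 0) C2A 17 = true := by decide +kernel
theorem chkB_2A_18 : chkB (nth XL 0) C2A 18 = true := by decide +kernel
theorem chkB_2A_19 : chkB (nth XL 0) C2A 19 = true := by decide +kernel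
theorem chkB_2A_20 : chkB (nth XL 0) C2A 20 = true := by decide +kernel
theorem chkB_2A_21 : chkB (nth XL 0) C2A 21 = true := by decide +kernel
theorem chkB_2A_22 : chkB (nth XL 0) C2A 22 = true := by decide +kernel
theorem chkB_2A_23 : chkB (nth XL 0) C2A 23 = true := by decide +kernel
theorem chkB_2A_24 : chkB (nth XL 0) C2A 24 = true := by decide +kernel
theorem chkB_2A_25 : chkB (nth XL 0) C2A 25 = true := by decide +kernel
theorem chkB_2A_26 : chkB (nth XL 0) C2A 26 = true := by decide +kernel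
theorem chkB_2A_27 : chkB (nth XL 0) C2A 27 = true := by decide +kernel
theorem chkB_2A_28 : chkB (nth XL 0) C2A 28 = true := by decide +kernel
theorem chkB_2A_29 : chkB (nth XL 0) C2A 29 = true := by decide +kernel
theorem chkB_2A_30 : chkB (nth XL 0) C2A 30 = true := by decide +kernel
theorem chkB_2A_31 : chkB (nth XL 0) C2A 31 = true := by decide +kernel
theorem std_2A {γ : M24} (e : (γ : Equiv.Perm GolayPt) = permOf (pX (nthW WX 0))) {t : ℕ} (ht : t < 2048) :
    Std (vel t * θJ γ) :=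
  chk2_spec chkA_2A (chkB_all (m := 32) (fun k hk => by
    interval_cases k
    exacts [chkB_2A_0, chkB_2A_1, chkB_2A_2, chkB_2A_3, chkB_2A_4, chkB_2A_5, chkB_2A_6, chkB_2A_7,
      chkB_2A_8, chkB_2A_9, chkB_2A_10, chkB_2A_11, chkB_2A_12, chkB_2A_13, chkB_2A_14, chkB_2A_15,
      chkB_2A_16, chkB_2A_17, chkB_2A_18, chkB_2A_19, chkB_2A_20, chkB_2A_21, chkB_2A_22, chkB_2A_23,
      chkB_2A_24, chkB_2A_25, chkB_2A_26, chkB_2A_27, chkB_2A_28, chkB_2A_29, chkB_2A_30, chkB_2A_31]) (by decide +kernel)) e ht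

theorem chkA_2B : chkA (nthW WX 1) (nth XL 1) (nth FX 1) C2B = true := by decide +kernel
theorem chkB_2B_0 : chkB (nth XL 1) C2B 0 = true := by decide +kernel
theorem chkB_2B_1 : chkB (nth XL 1) C2B 1 = true := by decide +kernel
theorem chkB_2B_2 : chkB (nth XL 1) C2B 2 = true := by decide +kernel
theorem chkB_2B_3 : chkB (nth XL 1) C2B 3 = true := by decide +kernel
theorem chkB_2B_4 : chkB (nth XL 1) C2B 4 = true := by decide +kernel
theorem chkB_2B_5 : chkB (nth XL 1) C2B 5 = true := by decide +kernel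
theorem chkB_2B_6 : chkB (nth XL 1) C2B 6 = true := by decide +kernel
theorem chkB_2B_7 : chkB (nth XL 1) C2B 7 = true := by decide +kernel
theorem chkB_2B_8 : chkB (nth XL 1) C2B 8 = true := by decide +kernel
theorem chkB_2B_9 : chkB (nth XL 1) C2B 9 = true := by decide +kernel
theorem chkB_2B_10 : chkB (nth XL 1) C2B 10 = true := by decide +kernel
theorem chkB_2B_11 : chkB (nth XL 1) C2B 11 = true := by decide +kernel
theorem chkB_2B_12 : chkB (nth XL 1) C2B 12 = true := by decide +kernel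
theorem chkB_2B_13 : chkB (nth XL 1) C2B 13 = true := by decide +kernel
theorem chkB_2B_14 : chkB (nth XL 1) C2B 14 = true := by decide +kernel
theorem chkB_2B_15 : chkB (nth XL 1) C2B 15 = true := by decide +kernel
theorem std_2B {γ : M24} (e : (γ : Equiv.Perm GolayPt) = permOf (pX (nthW WX 1))) {t : ℕ} (ht : t < 2048) :
    Std (vel t * θJ γ) :=
  chk2_spec chkA_2B (chkB_all (m := 16) (fun k hk => by
    interval_cases k
    exacts [chkB_2B_0, chkB_2B_1, chkB_2B_2, chkB_2B_3, chkB_2B_4, chkB_2B_5, chkB_2B_6, chkB_2B_7,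
      chkB_2B_8, chkB_2B_9, chkB_2B_10, chkB_2B_11, chkB_2B_12, chkB_2B_13, chkB_2B_14, chkB_2B_15]) (by decide +kernel)) e ht

theorem chkA_4A : chkA (nthW WX 2) (nth XL 2) (nth FX 2) C4A = true := by decide +kernel
theorem chkB_4A_0 : chkB (nth XL 2) C4A 0 = true := by decide +kernel
theorem chkB_4A_1 : chkB (nth XL 2) C4A 1 = true := by decide +kernel
theorem chkB_4A_2 : chkB (nth XL 2) C4A 2 = true := by decide +kernel
theorem chkB_4A_3 : chkB (nth XL 2) C4A 3 = true := by decide +kernel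
theorem std_4A {γ : M24} (e : (γ : Equiv.Perm GolayPt) = permOf (pX (nthW WX 2))) {t : ℕ} (ht : t < 2048) :
    Std (vel t * θJ γ) :=
  chk2_spec chkA_4A (chkB_all (m := 4) (fun k hk => by
    interval_cases k
    exacts [chkB_4A_0, chkB_4A_1, chkB_4A_2, chkB_4A_3]) (by decide +kernel)) e ht

theorem chkA_4B : chkA (nthW WX 3) (nth XL 3) (nth FX 3) C4B = true := by decide +kernel
theorem chkB_4B_0 : chkB (nth XL 3) C4B 0 = true := by decide +kernel
theorem chkB_4B_1 : chkB (nth XL 3) C4B 1 = true := by decide +kernel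
theorem chkB_4B_2 : chkB (nth XL 3) C4B 2 = true := by decide +kernel
theorem chkB_4B_3 : chkB (nth XL 3) C4B 3 = true := by decide +kernel
theorem std_4B {γ : M24} (e : (γ : Equiv.Perm GolayPt) = permOf (pX (nthW WX 3))) {t : ℕ} (ht : t < 2048) :
    Std (vel t * θJ γ) :=
  chk2_spec chkA_4B (chkB_all (m := 4) (fun k hk => by
    interval_cases k
    exacts [chkB_4B_0, chkB_4B_1, chkB_4B_2, chkB_4B_3]) (by decide +kernel)) e ht

theorem chkA_4C : chkA (nthW WX 4) (nth XL 4) (nth FX 4) C4C = true := by decide +kernel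
theorem chkB_4C_0 : chkB (nth XL 4) C4C 0 = true := by decide +kernel
theorem chkB_4C_1 : chkB (nth XL 4) C4C 1 = true := by decide +kernel
theorem std_4C {γ : M24} (e : (γ : Equiv.Perm GolayPt) = permOf (pX (nthW WX 4))) {t : ℕ} (ht : t < 2048) :
    Std (vel t * θJ γ) :=
  chk2_spec chkA_4C (chkB_all (m := 2) (fun k hk => by
    interval_cases k
    exacts [chkB_4C_0, chkB_4C_1]) (by decide +kernel)) e ht

theorem chkA_8A : chkA (nthW WX 5) (nth XL 5) (nth FX 5) C8A = true := by decide +kernel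
theorem chkB_8A_0 : chkB (nth XL 5) C8A 0 = true := by decide +kernel
theorem std_8A {γ : M24} (e : (γ : Equiv.Perm GolayPt) = permOf (pX (nthW WX 5))) {t : ℕ} (ht : t < 2048) :
    Std (vel t * θJ γ) :=
  chk2_spec chkA_8A (chkB_all (m := 1) (fun k hk => by
    interval_cases k
    exacts [chkB_8A_0]) (by decide +kernel)) e ht

theorem eqns_TwoA : True := by
  have := @RC.eq_1
  have := @ρ2.eq_1
  have := @Std.eq_1
  have := @pX.eq_1
  have := @orS.eq_1
  have := @chkA.eq_1
  have := @chkE.eq_1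
  have := @chkB.eq_1
  trivial

end H74.J4C
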